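import Mathlib

set_option autoImplicit false

namespace Cfsg.Agent.Lib.Helper54.MinSU

/-- [ORB2] -/
theorem orb2 {G α : Type*} [Group G] [Finite G] [MulAction G α] (x : α) (Y : Set α) [Finite Y]
    (hx : x ∈ Y) (R X : Subgroup G) (hR : ∀ g ∈ R, ∀ y ∈ Y, g • y ∈ Y) (hX : ∀ g ∈ X, g • x = x) :
    Nat.card (MulAction.orbit G x) * R.relIndex X
      ≤ R.index * Nat.card (Y ∩ MulAction.orbit G x : Set α) := by
  have h1 : Nat.card (MulAction.orbit G x) = (MulAction.stabilizer G x).index :=
    (MulAction.index_stabilizer G x).symm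
  have hstab : MulAction.stabilizer R x = (MulAction.stabilizer G x).subgroupOf R := by
    ext r
    rw [MulAction.mem_stabilizer_iff, Subgroup.mem_subgroupOf, MulAction.mem_stabilizer_iff]
    rfl
  have h2 : (MulAction.stabilizer G x).relIndex R = (MulAction.orbit R x).ncard := by
    rw [← MulAction.index_stabilizer R x, hstab]
    rfl
  have h3 : R.relIndex (MulAction.stabilizer G x) * (MulAction.stabilizer G x).index
      = (R ⊓ MulAction.stabilizer G x).index := by
    rw [← Subgroup.inf_relIndex_right]
    exact Subgroup.relIndex_mul_index inf_le_right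
  have h4 : (MulAction.stabilizer G x).relIndex R * R.index
      = (R ⊓ MulAction.stabilizer G x).index := by
    rw [← Subgroup.inf_relIndex_left]
    exact Subgroup.relIndex_mul_index inf_le_left
  have hXS : X ≤ MulAction.stabilizer G x := fun g hg => hX g hg
  have h5 : R.relIndex X ≤ R.relIndex (MulAction.stabilizer G x) :=
    Subgroup.relIndex_le_of_le_right hXS (by
      intro h0
      rw [h0, zero_mul] at h3
      exact Subgroup.index_ne_zero_of_finite h3.symm)
  have hsub : MulAction.orbit R x ⊆ Y ∩ MulAction.orbit G x := by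
    rintro _ ⟨r, rfl⟩
    exact ⟨hR r.1 r.2 x hx, ⟨r.1, rfl⟩⟩
  have hfin : (Y ∩ MulAction.orbit G x).Finite := Set.Finite.inter_of_left (Set.toFinite Y) _
  have h6 : (MulAction.orbit R x).ncard ≤ Nat.card (Y ∩ MulAction.orbit G x : Set α) :=
    Set.ncard_le_ncard hsub hfin
  calc Nat.card (MulAction.orbit G x) * R.relIndex X
      ≤ (MulAction.stabilizer G x).index * R.relIndex (MulAction.stabilizer G x) := by
        rw [h1]
        exact Nat.mul_le_mul_left _ h5
    _ = R.index * (MulAction.orbit R x).ncard := by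
        rw [mul_comm, h3, ← h4, h2, mul_comm]
    _ ≤ _ := Nat.mul_le_mul_left _ h6

end Cfsg.Agent.Lib.Helper54.MinSU
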