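import Mathlib
import Cfsg.Agent.Lib.Helper83.MinSU.Defs
import Cfsg.Agent.Lib.Helper5.SUParabolic
import Cfsg.Agent.Lib.Helper5.SUOrder
import Cfsg.Agent.Lib.Helper5.GUOrder
import Cfsg.Agent.Lib.Helper8.MinSU.NUM
import Cfsg.Agent.Lib.Helper15.MinSU.DUAL

set_option autoImplicit false

namespace Cfsg.Agent.Lib.Helper54.MinSU

open Matrix Module Cfsg.Agent.Lib.Helper13 Cfsg.Agent.Lib.Helper5 Cfsg.Agent.Lib.Helper57.RootSU
  Cfsg.Agent.Lib.Helper83.MinSU

variable {F : Type*} [Field F] [Fintype F] {q m n : ℕ}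

theorem card_le_of_Fq (hF : Fintype.card F = q ^ 2) (D : AddSubgroup (Fin m → F))
    (hD : ∀ w ∈ D, ∀ w' ∈ D, (Cfsg.hermForm m F q w w') ^ q = Cfsg.hermForm m F q w w') :
    Nat.card D ≤ q ^ m := by
  obtain ⟨s, hs0, hs⟩ := exists_skew_q hF
  have h := Cfsg.Agent.Lib.Helper15.MinSU.iso_lemma hF ⊥ ⟨s, hs, by simpa using hs0⟩ D
    (fun w hw w' hw' => by
      rw [AddSubgroup.mem_bot, ← hermForm_swap hF w w', hD w hw w' hw', sub_self])
  rw [mul_comm, pow_mul] at h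
  exact (Nat.pow_le_pow_iff_left (by norm_num)).mp h

theorem NU_six (hq : 2 ≤ q) : NU q 6 = (q ^ 4 + q ^ 2 + 1) * (q ^ 5 + 1) := by
  have h := Cfsg.Agent.Lib.Helper8.MinSU.NU_mul (n := 6) hq (by decide)
  obtain ⟨u, hu⟩ : ∃ u, q ^ 2 = u + 1 := ⟨q ^ 2 - 1, by have : 0 < q ^ 2 := by positivity
                                                        omega⟩
  have hu0 : 0 < u := by
    have : 4 ≤ q ^ 2 := by nlinarith
    omega
  have e6 : q ^ 6 - 1 = u * (q ^ 4 + q ^ 2 + 1) := by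
    have : q ^ 6 = u * (q ^ 4 + q ^ 2 + 1) + 1 := by
      have e4 : q ^ 4 = (u + 1) ^ 2 := by rw [← hu]; ring
      have e6' : q ^ 6 = (u + 1) ^ 3 := by rw [← hu]; ring
      rw [e4, e6', hu]
      ring
    omega
  have e2 : q ^ 2 - 1 = u := by omega
  rw [e2, e6] at h
  have h' : NU q 6 * u = ((q ^ 4 + q ^ 2 + 1) * (q ^ 5 + 1)) * u := by
    rw [h]
    norm_num
    ring
  exact Nat.eq_of_mul_eq_mul_right hu0 h'

theorem arith_RAD4 (hq : 2 ≤ q) : q ^ 4 * NU q 6 ≤ q ^ 9 * ((q + 1) * (q ^ 3 + 1)) := by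
  rw [NU_six hq]
  have h1 : q ^ 7 ≤ q ^ 8 := Nat.pow_le_pow_right (by omega) (by norm_num)
  have h2 : q ^ 4 + q ^ 2 + 1 ≤ q ^ 6 := by
    have a1 : q ^ 4 * 4 ≤ q ^ 6 := by
      have : q ^ 6 = q ^ 4 * q ^ 2 := by ring
      rw [this]
      exact Nat.mul_le_mul_left _ (by nlinarith)
    have a2 : q ^ 2 ≤ q ^ 4 := Nat.pow_le_pow_right (by omega) (by norm_num)
    have a3 : 1 ≤ q ^ 4 := Nat.one_le_pow _ _ (by omega)
    omega
  have e1 : q ^ 4 * ((q ^ 4 + q ^ 2 + 1) * (q ^ 5 + 1))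
      = q ^ 4 * (q ^ 9 + q ^ 7 + q ^ 5 + (q ^ 4 + q ^ 2 + 1)) := by ring
  have e2 : q ^ 9 * ((q + 1) * (q ^ 3 + 1)) = q ^ 4 * (q ^ 9 + q ^ 8 + q ^ 5 + q ^ 6) := by ring
  rw [e1, e2]
  exact Nat.mul_le_mul_left _ (by omega)

theorem card_SU4 (hF : Fintype.card F = q ^ 2) :
    (q + 1) * Nat.card (Cfsg.SU 4 F q)
      = q ^ 6 * ((q + 1) * (q ^ 2 - 1) * (q ^ 3 + 1) * (q ^ 4 - 1)) := by
  rw [card_SU_mul hF (by norm_num), card_GU hF 4]
  simp [Finset.prod_range_succ, Nat.even_add_one]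

theorem index_stab_RAD4 (hF : Fintype.card F = q ^ 2) (T : Submodule F (Fin 4 → F))
    (hT : ∀ u ∈ T, ∀ v ∈ T, Cfsg.hermForm 4 F q u v = 0) (hT0 : T ≠ ⊥) :
    (q + 1) * (q ^ 3 + 1) ≤ ((Cfsg.stabilizing (Cfsg.slToMat 4 F)
      (T : Set (Fin 4 → F))).subgroupOf (Cfsg.SU 4 F q)).index := by
  have hq := two_le_of_card_sq hF
  have : Finite (Cfsg.SU 4 F q) := Subtype.finite
  have hk1 : 1 ≤ finrank F T := by
    rw [Nat.one_le_iff_ne_zero, Ne, Submodule.finrank_eq_zero]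
    exact hT0
  have hk2 : finrank F T ≤ 2 := by
    have h1 := card_le_of_Fq hF T.toAddSubgroup (fun w hw w' hw' => by
      rw [hT w hw w' hw', zero_pow (by omega)])
    have h2 : Nat.card T.toAddSubgroup = (q ^ 2) ^ finrank F T := by
      have := Module.natCard_eq_pow_finrank (K := F) (V := T)
      rw [Nat.card_eq_fintype_card (α := F), hF] at this
      exact this
    rw [h2, ← pow_mul] at h1
    have := (Nat.pow_le_pow_iff_right (by omega : 1 < q)).mp h1
    omega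
  have hidx := Subgroup.index_mul_card ((Cfsg.stabilizing (Cfsg.slToMat 4 F)
      (T : Set (Fin 4 → F))).subgroupOf (Cfsg.SU 4 F q))
  have hSU := card_SU4 hF
  obtain ⟨u, hu⟩ : ∃ u, q ^ 2 = u + 1 := ⟨q ^ 2 - 1, by have : 0 < q ^ 2 := by positivity
                                                        omega⟩
  have hu0 : 0 < u := by
    have : 4 ≤ q ^ 2 := by nlinarith
    omega
  have e2 : q ^ 2 - 1 = u := by omega
  have e4 : q ^ 4 - 1 = u * (q ^ 2 + 1) := by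
    have : q ^ 4 = u * (q ^ 2 + 1) + 1 := by
      have e4' : q ^ 4 = (u + 1) ^ 2 := by rw [← hu]; ring
      rw [e4', hu]
      ring
    omega
  have hqpos : 0 < q := by omega
  rcases (by omega : finrank F T = 1 ∨ finrank F T = 2) with hk | hk
  · have hpar := card_su_parabolic hF 1 (by norm_num) (by norm_num) T hk hT
    have hpar' : (q + 1) * Nat.card ((Cfsg.stabilizing (Cfsg.slToMat 4 F)
        (T : Set (Fin 4 → F))).subgroupOf (Cfsg.SU 4 F q))
        = q ^ 5 * (q ^ 2 - 1) * (q * ((q + 1) * (q ^ 2 - 1))) := by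
      rw [hpar]
      simp [Finset.prod_range_succ, Nat.even_add_one]
    rw [e2] at hpar'
    rw [e2, e4, ← hidx] at hSU
    have h3 : ((Cfsg.stabilizing (Cfsg.slToMat 4 F)
        (T : Set (Fin 4 → F))).subgroupOf (Cfsg.SU 4 F q)).index
        * (q ^ 5 * u * (q * ((q + 1) * u)))
        = ((q ^ 3 + 1) * (q ^ 2 + 1)) * (q ^ 5 * u * (q * ((q + 1) * u))) := by
      calc _ = ((Cfsg.stabilizing (Cfsg.slToMat 4 F)
            (T : Set (Fin 4 → F))).subgroupOf (Cfsg.SU 4 F q)).index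
            * ((q + 1) * Nat.card ((Cfsg.stabilizing (Cfsg.slToMat 4 F)
            (T : Set (Fin 4 → F))).subgroupOf (Cfsg.SU 4 F q))) := by rw [hpar']
        _ = _ := by rw [← mul_assoc, mul_comm _ (q + 1), mul_assoc]
        _ = _ := hSU
        _ = _ := by ring
    have h4 := Nat.eq_of_mul_eq_mul_right (by positivity) h3
    rw [h4, mul_comm]
    exact Nat.mul_le_mul_left _ (by nlinarith)
  · have hpar := card_su_parabolic hF 2 (by norm_num) (by norm_num) T hk hT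
    have hpar' : (q + 1) * Nat.card ((Cfsg.stabilizing (Cfsg.slToMat 4 F)
        (T : Set (Fin 4 → F))).subgroupOf (Cfsg.SU 4 F q))
        = q ^ 4 * ((q ^ 4 - 1) * (q ^ 4 - q ^ 2)) := by
      rw [hpar]
      simp [Fin.prod_univ_succ]
      left
      ring_nf
    have e42 : q ^ 4 - q ^ 2 = q ^ 2 * u := by
      have : q ^ 4 = q ^ 2 * u + q ^ 2 := by
        have e4' : q ^ 4 = q ^ 2 * q ^ 2 := by ring
        rw [e4']
        nth_rewrite 2 [hu]
        ring
      omega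
    rw [e4, e42] at hpar'
    rw [e2, e4, ← hidx] at hSU
    have h3 : ((Cfsg.stabilizing (Cfsg.slToMat 4 F)
        (T : Set (Fin 4 → F))).subgroupOf (Cfsg.SU 4 F q)).index
        * (q ^ 4 * ((u * (q ^ 2 + 1)) * (q ^ 2 * u)))
        = ((q + 1) * (q ^ 3 + 1)) * (q ^ 4 * ((u * (q ^ 2 + 1)) * (q ^ 2 * u))) := by
      calc _ = ((Cfsg.stabilizing (Cfsg.slToMat 4 F)
            (T : Set (Fin 4 → F))).subgroupOf (Cfsg.SU 4 F q)).index
            * ((q + 1) * Nat.card ((Cfsg.stabilizing (Cfsg.slToMat 4 F)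
            (T : Set (Fin 4 → F))).subgroupOf (Cfsg.SU 4 F q))) := by rw [hpar']
        _ = _ := by rw [← mul_assoc, mul_comm _ (q + 1), mul_assoc]
        _ = _ := hSU
        _ = _ := by ring
    have h4 := Nat.eq_of_mul_eq_mul_right (by positivity) h3
    rw [h4]

/-- [RAD4] -/
theorem wb4_rad (hF : Fintype.card F = q ^ 2) (D : AddSubgroup (Fin 4 → F))
    (R : Subgroup (Cfsg.SU 4 F q))
    (hD : ∀ w ∈ D, ∀ w' ∈ D, (Cfsg.hermForm 4 F q w w') ^ q = Cfsg.hermForm 4 F q w w')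
    (hR : ∀ l ∈ R, ∀ w ∈ D, l.1.1 *ᵥ w ∈ D)
    (x : Fin 4 → F) (hx : x ∈ D) (hx0 : x ≠ 0) (hxD : ∀ y ∈ D, Cfsg.hermForm 4 F q x y = 0) :
    Nat.card D * NU q 6 ≤ q ^ 9 * R.index := by
  have hq := two_le_of_card_sq hF
  have : Finite (Cfsg.SU 4 F q) := Subtype.finite
  have hDc := card_le_of_Fq hF D hD
  set T : Submodule F (Fin 4 → F) :=
    Submodule.span F {y | y ∈ D ∧ ∀ w ∈ D, Cfsg.hermForm 4 F q y w = 0} with hTdef
  have hxT : x ∈ T := Submodule.subset_span ⟨hx, hxD⟩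
  have hT0 : T ≠ ⊥ := by
    intro h
    rw [h, Submodule.mem_bot] at hxT
    exact hx0 hxT
  have hT1 : ∀ v, (v ∈ D ∧ ∀ w ∈ D, Cfsg.hermForm 4 F q v w = 0) →
      ∀ u ∈ T, Cfsg.hermForm 4 F q u v = 0 := by
    intro v hv u hu
    induction hu using Submodule.span_induction with
    | mem y hy => exact hy.2 v hv.1
    | zero => rw [hermForm_zero_left]
    | add a b _ _ ha hb => rw [hermForm_add_left, ha, hb, add_zero]
    | smul c a _ ha => rw [hermForm_smul_left, ha, mul_zero]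
  have hT : ∀ u ∈ T, ∀ v ∈ T, Cfsg.hermForm 4 F q u v = 0 := by
    intro u hu v hv
    induction hv using Submodule.span_induction with
    | mem y hy => exact hT1 y hy u hu
    | zero => rw [hermForm_zero_right hF]
    | add a b _ _ ha hb => rw [hermForm_add_right hF, ha, hb, add_zero]
    | smul c a _ ha => rw [hermForm_smul_right, ha, mul_zero]
  have hinv : ∀ l ∈ R, ∀ v ∈ T, l.1.1 *ᵥ v ∈ T := by
    intro l hl v hv
    induction hv using Submodule.span_induction with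
    | mem y hy =>
      refine Submodule.subset_span ⟨hR l hl y hy.1, fun w hw => ?_⟩
      rw [← SU_mulVec_inv_mulVec l w, SU_preserves]
      exact hy.2 _ (hR _ (R.inv_mem hl) w hw)
    | zero => rw [Matrix.mulVec_zero]; exact T.zero_mem
    | add a b _ _ ha hb => rw [Matrix.mulVec_add]; exact T.add_mem ha hb
    | smul c a _ ha => rw [Matrix.mulVec_smul]; exact T.smul_mem c ha
  have hle : R ≤ (Cfsg.stabilizing (Cfsg.slToMat 4 F)
      (T : Set (Fin 4 → F))).subgroupOf (Cfsg.SU 4 F q) := by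
    intro l hl
    rw [Subgroup.mem_subgroupOf]
    intro v
    constructor
    · intro hv
      exact hinv l hl v hv
    · intro hv
      have := hinv _ (R.inv_mem hl) _ hv
      have e : (l⁻¹).1.1 *ᵥ (l.1.1 *ᵥ v) = v := SU_inv_mulVec_mulVec l v
      rw [← e]
      exact this
  have hidx : (q + 1) * (q ^ 3 + 1) ≤ R.index :=
    (index_stab_RAD4 hF T hT hT0).trans
      (Nat.le_of_dvd (Nat.pos_of_ne_zero Subgroup.index_ne_zero_of_finite)
        (Subgroup.index_dvd_of_le hle))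
  calc Nat.card D * NU q 6 ≤ q ^ 4 * NU q 6 := Nat.mul_le_mul_right _ hDc
    _ ≤ q ^ 9 * ((q + 1) * (q ^ 3 + 1)) := arith_RAD4 hq
    _ ≤ q ^ 9 * R.index := Nat.mul_le_mul_left _ hidx

end Cfsg.Agent.Lib.Helper54.MinSU
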