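import Mathlib
import Cfsg.Agent.Lib.Helper83.MinSU.Defs
import Cfsg.Agent.Lib.Helper63.MinSU.Tools
import Cfsg.Agent.Lib.Helper62.MinSU.Geo
import Cfsg.Agent.Lib.Helper54.MinSU.ORB2
import Cfsg.Agent.Lib.Helper54.MinSU.RAD4

set_option autoImplicit false

namespace Cfsg.Agent.Lib.Helper54.MinSU

open Matrix Module Cfsg.Agent.Lib.Helper13 Cfsg.Agent.Lib.Helper5 Cfsg.Agent.Lib.Helper57.RootSU
  Cfsg.Agent.Lib.Helper83.MinSU Cfsg.Agent.Lib.Helper63.MinSU

variable {F : Type*} [Field F] [Fintype F] {q m n : ℕ}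

/-- [ODD4 (a)] COUNT -/
theorem odd4_count (hF : Fintype.card F = q ^ 2) (D : AddSubgroup (Fin m → F))
    (hDq : ∀ c : F, c ^ q = c → ∀ w ∈ D, c • w ∈ D)
    (hD : ∀ w ∈ D, ∀ w' ∈ D, (Cfsg.hermForm m F q w w') ^ q = Cfsg.hermForm m F q w w')
    (x : Fin m → F) (hx : x ∈ D) (hc0 : Cfsg.hermForm m F q x x ≠ 0) :
    q * Nat.card {y : Fin m → F | y ∈ D ∧ Cfsg.hermForm m F q y y = Cfsg.hermForm m F q x x}
      ≤ 2 * Nat.card D := by
  classical
  set c := Cfsg.hermForm m F q x x with hc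
  set S : Finset (Fin m → F) := Finset.univ.filter
    (fun y => y ∈ D ∧ Cfsg.hermForm m F q y y = c) with hS
  set K : Finset F := Finset.univ.filter (fun t => t ^ q = t) with hK
  set DD : Finset (Fin m → F) := Finset.univ.filter (fun y => y ∈ D) with hDD
  have e1 : Nat.card {y : Fin m → F | y ∈ D ∧ Cfsg.hermForm m F q y y = c} = S.card := by
    rw [Nat.card_eq_fintype_card]
    exact Fintype.card_of_subtype _ (fun y => by simp [hS])
  have e2 : Nat.card D = DD.card := by
    rw [Nat.card_eq_fintype_card]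
    exact Fintype.card_of_subtype _ (fun y => by simp [hDD])
  have e3 : q = K.card := by
    rw [← card_Fq hF, Nat.card_eq_fintype_card]
    exact Fintype.card_of_subtype _ (fun y => by simp [hK])
  rw [e1, e2]
  have e4 : q * S.card = (K ×ˢ S).card := by rw [Finset.card_product, ← e3]
  rw [e4]
  set f : F × (Fin m → F) → (Fin m → F) := fun p => p.2 + p.1 • x with hf
  have himg : (K ×ˢ S).image f ⊆ DD := by
    intro b hb
    obtain ⟨p, hp, rfl⟩ := Finset.mem_image.mp hb
    rw [Finset.mem_product] at hp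
    simp only [hK, hS, hDD, Finset.mem_filter, Finset.mem_univ, true_and] at hp ⊢
    exact D.add_mem hp.2.1 (hDq _ hp.1 x hx)
  refine le_trans (Finset.card_le_mul_card_image (f := f) (K ×ˢ S) 2 ?_)
    (Nat.mul_le_mul_left 2 (Finset.card_le_card himg))
  intro b hb
  have hbD : b ∈ D := by
    have := himg hb
    simpa [hDD] using this
  obtain ⟨p0, hp0, hp0b⟩ := Finset.mem_image.mp hb
  set β := Cfsg.hermForm m F q b x with hβ
  have hβ' : Cfsg.hermForm m F q x b = β := by
    rw [← hermForm_swap hF, hD b hbD x hx]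
  -- the equation
  have heq : ∀ p ∈ K ×ˢ S, f p = b →
      p.2 = b - p.1 • x ∧ Cfsg.hermForm m F q b b - 2 * p.1 * β + p.1 ^ 2 * c = c := by
    intro p hp hpb
    rw [Finset.mem_product] at hp
    simp only [hK, hS, Finset.mem_filter, Finset.mem_univ, true_and] at hp
    have h1 : p.2 = b - p.1 • x := by rw [← hpb]; simp [hf]
    refine ⟨h1, ?_⟩
    have h2 := hp.2.2
    rw [h1, hermForm_sub_left, hermForm_sub_right hF, hermForm_sub_right hF, hermForm_smul_left,
      hermForm_smul_left, hermForm_smul_right, hermForm_smul_right, hp.1, hβ', ← hβ, ← hc] at h2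
    linear_combination h2
  obtain ⟨h01, h02⟩ := heq p0 hp0 hp0b
  set t1 := 2 * β / c - p0.1 with ht1
  have hsub : (K ×ˢ S).filter (fun p => f p = b) ⊆ {p0, (t1, b - t1 • x)} := by
    intro p hp
    rw [Finset.mem_filter] at hp
    obtain ⟨h11, h12⟩ := heq p hp.1 hp.2
    have h3 : (p.1 - p0.1) * (c * (p.1 + p0.1) - 2 * β) = 0 := by
      linear_combination h12 - h02
    rw [Finset.mem_insert, Finset.mem_singleton]
    rcases mul_eq_zero.mp h3 with h4 | h4
    · left
      have h5 : p.1 = p0.1 := sub_eq_zero.mp h4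
      exact Prod.ext h5 (by rw [h11, h01, h5])
    · right
      have h5 : p.1 = t1 := by
        rw [ht1]
        field_simp
        linear_combination h4
      exact Prod.ext h5 (by rw [h11, h5])
  exact le_trans (Finset.card_le_card hsub) Finset.card_le_two

/-- a nonzero isotropic vector orthogonal to a given vector of `F^4` -/
theorem odd4_exists_v (hF : Fintype.card F = q ^ 2) (x : Fin 4 → F) :
    ∃ v : Fin 4 → F, v ≠ 0 ∧ Cfsg.hermForm 4 F q v v = 0 ∧ Cfsg.hermForm 4 F q v x = 0 := by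
  obtain ⟨t, ht⟩ := (Cfsg.Agent.Lib.Helper45.SUGen.hermH hF 0).exists_norm (-1)
    (by rw [map_neg, map_one])
  have ht' : t * t ^ q = -1 := ht
  set α := x 0 ^ q + t * x 1 ^ q with hα
  set β := x 2 ^ q + t * x 3 ^ q with hβ
  by_cases hαβ : α = 0 ∧ β = 0
  · refine ⟨![1, t, 0, 0], ?_, ?_, ?_⟩
    · intro h
      have := congrFun h 0
      simp at this
    · have hq := two_le_of_card_sq hF
      simp only [Cfsg.hermForm, Fin.sum_univ_four]
      simp
      linear_combination ht'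
    · simp only [Cfsg.hermForm, Fin.sum_univ_four]
      simp
      linear_combination hαβ.1
  · refine ⟨![β, β * t, -α, -α * t], ?_, ?_, ?_⟩
    · intro h
      apply hαβ
      have h0 := congrFun h 0
      have h2 := congrFun h 2
      simp at h0 h2
      exact ⟨h2, h0⟩
    · simp only [Cfsg.hermForm, Fin.sum_univ_four]
      simp only [Matrix.cons_val_zero, Matrix.cons_val_one, Matrix.cons_val]
      rw [mul_pow, mul_pow, neg_pow_q hF]
      linear_combination (β * β ^ q + α * α ^ q) * ht'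
    · simp only [Cfsg.hermForm, Fin.sum_univ_four]
      simp only [Matrix.cons_val_zero, Matrix.cons_val_one, Matrix.cons_val]
      rw [hα, hβ]
      ring

/-- [ODD4 (c)] arithmetic -/
theorem odd4_arith (hq : 3 ≤ q) (d k I r : ℕ) (hd0 : 0 < d) (h1 : q * k ≤ 2 * d)
    (h2 : q ^ 3 * (q ^ 4 - 1) * r ≤ I * k) (hdr : d ^ 2 ≤ q ^ 7 * r) :
    d * NU q 6 ≤ q ^ 9 * I := by
  have key : 2 * NU q 6 ≤ q ^ 6 * (q ^ 4 - 1) := by
    rw [NU_six (by omega)]
    obtain ⟨u, hu⟩ : ∃ u, q ^ 4 = u + 1 := ⟨q ^ 4 - 1, by have : 0 < q ^ 4 := by positivity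
                                                          omega⟩
    have e : q ^ 4 - 1 = u := by omega
    rw [e]
    have e10 : q ^ 6 * u + q ^ 6 = q ^ 10 := by
      have : q ^ 10 = q ^ 6 * q ^ 4 := by ring
      rw [this, hu]; ring
    have a10 : 3 * q ^ 9 ≤ q ^ 10 := by
      have : q ^ 10 = q * q ^ 9 := by ring
      rw [this]; exact Nat.mul_le_mul_right _ hq
    have a9 : 9 * q ^ 7 ≤ q ^ 9 := by
      have : q ^ 9 = q ^ 2 * q ^ 7 := by ring
      rw [this]; exact Nat.mul_le_mul_right _ (by nlinarith)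
    have a7 : 3 * q ^ 6 ≤ q ^ 7 := by
      have : q ^ 7 = q * q ^ 6 := by ring
      rw [this]; exact Nat.mul_le_mul_right _ hq
    have a6 : 3 * q ^ 5 ≤ q ^ 6 := by
      have : q ^ 6 = q * q ^ 5 := by ring
      rw [this]; exact Nat.mul_le_mul_right _ hq
    have a5 : q ^ 4 ≤ q ^ 5 := Nat.pow_le_pow_right (by omega) (by norm_num)
    have a4 : q ^ 2 ≤ q ^ 4 := Nat.pow_le_pow_right (by omega) (by norm_num)
    have a2 : 1 ≤ q ^ 2 := Nat.one_le_pow _ _ (by omega)
    have e1 : 2 * ((q ^ 4 + q ^ 2 + 1) * (q ^ 5 + 1))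
        = 2 * q ^ 9 + 2 * q ^ 7 + 2 * q ^ 5 + 2 * q ^ 4 + 2 * q ^ 2 + 2 := by ring
    rw [e1]
    omega
  have hmain : (2 * d) * (d * NU q 6) ≤ (2 * d) * (q ^ 9 * I) := by
    calc (2 * d) * (d * NU q 6) = d ^ 2 * (2 * NU q 6) := by ring
      _ ≤ (q ^ 7 * r) * (q ^ 6 * (q ^ 4 - 1)) := Nat.mul_le_mul hdr key
      _ = q ^ 10 * (q ^ 3 * (q ^ 4 - 1) * r) := by ring
      _ ≤ q ^ 10 * (I * k) := Nat.mul_le_mul_left _ h2
      _ = q ^ 9 * I * (q * k) := by ring
      _ ≤ q ^ 9 * I * (2 * d) := Nat.mul_le_mul_left _ h1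
      _ = (2 * d) * (q ^ 9 * I) := by ring
  exact Nat.le_of_mul_le_mul_left hmain (by omega)

theorem three_le_of_two_ne_zero (hF : Fintype.card F = q ^ 2) (h2 : (2 : F) ≠ 0) : 3 ≤ q := by
  have hq := two_le_of_card_sq hF
  by_contra hcon
  have hq2 : q = 2 := by omega
  subst hq2
  have h4 : ((Fintype.card F : ℕ) : F) = 0 := Nat.cast_card_eq_zero F
  rw [hF] at h4
  apply h2
  have : (2 : F) * 2 = 0 := by
    have e : (((2 : ℕ) ^ 2 : ℕ) : F) = 2 * 2 := by norm_num
    rw [← e]; exact h4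
  exact mul_self_eq_zero.mp this

end Cfsg.Agent.Lib.Helper54.MinSU
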