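import Mathlib
import Cfsg.Agent.Lib.Helper54.MinSU.ODD4a

set_option autoImplicit false

namespace Cfsg.Agent.Lib.Helper54.MinSU

open Matrix Module Cfsg.Agent.Lib.Helper13 Cfsg.Agent.Lib.Helper5 Cfsg.Agent.Lib.Helper57.RootSU
  Cfsg.Agent.Lib.Helper83.MinSU Cfsg.Agent.Lib.Helper63.MinSU

variable {F : Type*} [Field F] [Fintype F] {q m n : ℕ}

/-- `D + F_q v` -/
def addFq (hF : Fintype.card F = q ^ 2) (D : AddSubgroup (Fin m → F)) (v : Fin m → F) :
    AddSubgroup (Fin m → F) where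
  carrier := {w | ∃ y ∈ D, ∃ a : F, a ^ q = a ∧ w = y + a • v}
  zero_mem' := ⟨0, D.zero_mem, 0, zero_pow (by have := two_le_of_card_sq hF; omega), by simp⟩
  add_mem' := by
    rintro _ _ ⟨y, hy, a, ha, rfl⟩ ⟨y', hy', a', ha', rfl⟩
    exact ⟨y + y', D.add_mem hy hy', a + a', by rw [add_pow_q hF, ha, ha'], by module⟩
  neg_mem' := by
    rintro _ ⟨y, hy, a, ha, rfl⟩
    exact ⟨-y, D.neg_mem hy, -a, by rw [neg_pow_q hF, ha], by module⟩

/-- if `v ≠ 0` is isotropic and orthogonal to `D` (nondegenerate) then `q |D| ≤ q ^ m` -/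
theorem card_mul_le_of_perp (hF : Fintype.card F = q ^ 2) (D : AddSubgroup (Fin m → F))
    (hDq : ∀ c : F, c ^ q = c → ∀ w ∈ D, c • w ∈ D)
    (hD : ∀ w ∈ D, ∀ w' ∈ D, (Cfsg.hermForm m F q w w') ^ q = Cfsg.hermForm m F q w w')
    (hrad : ∀ x ∈ D, (∀ y ∈ D, Cfsg.hermForm m F q x y = 0) → x = 0)
    (v : Fin m → F) (hv0 : v ≠ 0) (hv : Cfsg.hermForm m F q v v = 0)
    (hvD : ∀ y ∈ D, Cfsg.hermForm m F q y v = 0) :
    Nat.card D * q ≤ q ^ m := by
  have hvD' : ∀ y ∈ D, Cfsg.hermForm m F q v y = 0 := fun y hy =>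
    hermForm_eq_zero_comm hF (hvD y hy)
  have hvnot : v ∉ D := fun h => hv0 (hrad v h hvD')
  have h1 : Nat.card (addFq hF D v) ≤ q ^ m := by
    apply card_le_of_Fq hF
    rintro _ ⟨y, hy, a, ha, rfl⟩ _ ⟨y', hy', a', ha', rfl⟩
    have e : Cfsg.hermForm m F q (y + a • v) (y' + a' • v) = Cfsg.hermForm m F q y y' := by
      rw [hermForm_add_left, hermForm_add_right hF, hermForm_add_right hF, hermForm_smul_left,
        hermForm_smul_left, hermForm_smul_right, hermForm_smul_right, hv, hvD y hy, hvD' y' hy']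
      ring
    rw [e, hD y hy y' hy']
  refine le_trans ?_ h1
  have e0 : Nat.card D * q = Nat.card (D × {c : F // c ^ q = c}) := by
    rw [Nat.card_prod, card_Fq hF]
  rw [e0]
  refine Nat.card_le_card_of_injective
    (fun p : D × {c : F // c ^ q = c} =>
      (⟨p.1.1 + p.2.1 • v, p.1.1, p.1.2, p.2.1, p.2.2, rfl⟩ : addFq hF D v)) ?_
  rintro ⟨⟨y, hy⟩, ⟨a, ha⟩⟩ ⟨⟨y', hy'⟩, ⟨a', ha'⟩⟩ h
  have h' : y + a • v = y' + a' • v := congrArg Subtype.val h
  have haa : a = a' := by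
    by_contra hne
    have hne' : a - a' ≠ 0 := sub_ne_zero.mpr hne
    apply hvnot
    have e1 : (a - a') • v = y' - y := by
      rw [sub_smul]
      have : a • v = y' + a' • v - y := by rw [← h']; abel
      rw [this]; abel
    have e2 : v = (a - a')⁻¹ • (y' - y) := by
      rw [← e1, smul_smul, inv_mul_cancel₀ hne', one_smul]
    rw [e2]
    refine hDq _ ?_ _ (D.sub_mem hy' hy)
    rw [inv_pow, sub_eq_add_neg, add_pow_q hF, neg_pow_q hF, ha, ha']
  subst haa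
  have hyy : y = y' := add_right_cancel h'
  subst hyy
  rfl

/-- [ODD4 (b)] -/
theorem odd4_relIndex (hF : Fintype.card F = q ^ 2) (h2 : (2 : F) ≠ 0)
    (D : AddSubgroup (Fin 4 → F)) (R : Subgroup (Cfsg.SU 4 F q))
    (hDq : ∀ c : F, c ^ q = c → ∀ w ∈ D, c • w ∈ D)
    (hD : ∀ w ∈ D, ∀ w' ∈ D, (Cfsg.hermForm 4 F q w w') ^ q = Cfsg.hermForm 4 F q w w')
    (hR : ∀ l ∈ R, ∀ w ∈ D, l.1.1 *ᵥ w ∈ D)
    (hrad : ∀ x ∈ D, (∀ y ∈ D, Cfsg.hermForm 4 F q x y = 0) → x = 0)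
    (hcard : q ^ 3 < Nat.card D) (x : Fin 4 → F) :
    ∃ X : Subgroup (Cfsg.SU 4 F q), (∀ g ∈ X, g.1.1 *ᵥ x = x) ∧ q ≤ R.relIndex X := by
  have hq := two_le_of_card_sq hF
  obtain ⟨v, hv0, hv, hvx⟩ := odd4_exists_v hF x
  have hxv : Cfsg.hermForm 4 F q x v = 0 := hermForm_eq_zero_comm hF hvx
  refine ⟨TU q v, ?_, ?_⟩
  · intro g hg
    obtain ⟨c, hc, rfl⟩ := (mem_TU hF hv0 hv).mp hg
    rw [ut_mulVec hF hv hc, hxv]
    simp
  · obtain ⟨y, hyD, hyv⟩ : ∃ y ∈ D, Cfsg.hermForm 4 F q y v ≠ 0 := by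
      by_contra hcon
      push Not at hcon
      have h1 := card_mul_le_of_perp hF D hDq hD hrad v hv0 hv hcon
      have h3 : q ^ 3 * q < Nat.card D * q := Nat.mul_lt_mul_of_pos_right hcard (by omega)
      have h4 : q ^ 3 * q = q ^ 4 := by ring
      omega
    have hbot : R ⊓ TU q v = ⊥ := by
      rw [eq_bot_iff]
      intro g hg
      obtain ⟨hgR, hgT⟩ := Subgroup.mem_inf.mp hg
      obtain ⟨c, hc, rfl⟩ := (mem_TU hF hv0 hv).mp hgT
      rw [Subgroup.mem_bot]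
      set s := Cfsg.hermForm 4 F q y v with hs
      have h1 := hR _ hgR y hyD
      rw [ut_mulVec hF hv hc, ← hs] at h1
      have hz : (c * s) • v ∈ D := by
        have := D.sub_mem h1 hyD
        simpa using this
      have h3 := hD y hyD _ hz
      rw [hermForm_smul_right, ← hs] at h3
      have hcq : c ^ q = -c := by linear_combination hc
      rw [mul_pow, mul_pow, mul_pow, pow_q_pow_q hF, pow_q_pow_q hF, hcq] at h3
      have h4 : (2 : F) * (c * (s * s ^ q)) = 0 := by linear_combination h3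
      have hc0 : c = 0 := by
        rcases mul_eq_zero.mp h4 with h5 | h5
        · exact absurd h5 h2
        · rcases mul_eq_zero.mp h5 with h6 | h6
          · exact h6
          · exact absurd h6 (mul_ne_zero hyv (pow_ne_zero _ hyv))
      rw [hc0, ut_zero hF hv]
    rw [← Subgroup.inf_relIndex_right, hbot, Subgroup.relIndex_bot_left]
    refine le_trans (card_Sk hF).ge ?_
    refine Nat.card_le_card_of_injective
      (fun c : {c : F // c + c ^ q = 0} => (⟨ut hF v c.1, ut_mem_TU hF hv0 hv c.2⟩ : TU q v)) ?_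
    rintro ⟨c, hc⟩ ⟨d, hd⟩ h
    have h' : ut hF v c = ut hF v d := congrArg Subtype.val h
    apply Subtype.ext
    show c = d
    by_contra hne
    have h5 : ut hF v (c + -d) = 1 := by
      rw [← ut_mul hF hv hc (skew_neg hF hd), ← ut_inv hF hv hd, h', mul_inv_cancel]
    exact ut_ne_one hF hv0 hv (skew_add hF hc (skew_neg hF hd))
      (by rw [← sub_eq_add_neg]; exact sub_ne_zero.mpr hne) h5

/-- [ODD4] from the orbit size bound -/
theorem wb4_odd_of (hF : Fintype.card F = q ^ 2) (h2 : (2 : F) ≠ 0)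
    (horb : ∀ x : Fin 4 → F, Cfsg.hermForm 4 F q x x ≠ 0 →
      q ^ 3 * (q ^ 4 - 1) ≤ Nat.card (suOrbit q x))
    (D : AddSubgroup (Fin 4 → F))
    (R : Subgroup (Cfsg.SU 4 F q)) (hD0 : D ≠ ⊥)
    (hDq : ∀ c : F, c ^ q = c → ∀ w ∈ D, c • w ∈ D)
    (hD : ∀ w ∈ D, ∀ w' ∈ D, (Cfsg.hermForm 4 F q w w') ^ q = Cfsg.hermForm 4 F q w w')
    (hR : ∀ l ∈ R, ∀ w ∈ D, l.1.1 *ᵥ w ∈ D)
    (hrad : ∀ x ∈ D, (∀ y ∈ D, Cfsg.hermForm 4 F q x y = 0) → x = 0) :
    Nat.card D * NU q 6 ≤ q ^ 9 * R.index := by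
  have hq := three_le_of_two_ne_zero hF h2
  have : Finite (Cfsg.SU 4 F q) := Subtype.finite
  -- a non-isotropic vector of D
  obtain ⟨x, hxD, hx⟩ : ∃ x ∈ D, Cfsg.hermForm 4 F q x x ≠ 0 := by
    by_contra hcon
    push Not at hcon
    apply hD0
    rw [eq_bot_iff]
    intro w hw
    rw [AddSubgroup.mem_bot]
    apply hrad w hw
    intro y hy
    have h1 := hcon (w + y) (D.add_mem hw hy)
    rw [hermForm_add_left, hermForm_add_right hF, hermForm_add_right hF, hcon w hw, hcon y hy,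
      ← hermForm_swap hF w y, hD w hw y hy] at h1
    have h3 : (2 : F) * Cfsg.hermForm 4 F q w y = 0 := by linear_combination h1
    exact (mul_eq_zero.mp h3).resolve_left h2
  letI := suAct 4 F q
  have hd4 : Nat.card D ≤ q ^ 4 := card_le_of_Fq hF D hD
  have hd0 : 0 < Nat.card D := Nat.card_pos
  have hcount := odd4_count hF D hDq hD x hxD hx
  have hsub : Nat.card ((D : Set (Fin 4 → F)) ∩ MulAction.orbit (Cfsg.SU 4 F q) x : Set _)
      ≤ Nat.card {y : Fin 4 → F | y ∈ D ∧ Cfsg.hermForm 4 F q y y = Cfsg.hermForm 4 F q x x} := by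
    apply Nat.card_mono (Set.toFinite _)
    rintro y ⟨hyD, g, rfl⟩
    refine ⟨hyD, ?_⟩
    show Cfsg.hermForm 4 F q (g.1.1 *ᵥ x) (g.1.1 *ᵥ x) = _
    rw [SU_preserves]
  have hk : q * Nat.card ((D : Set (Fin 4 → F)) ∩ MulAction.orbit (Cfsg.SU 4 F q) x : Set _)
      ≤ 2 * Nat.card D := le_trans (Nat.mul_le_mul_left _ hsub) hcount
  have horb' : q ^ 3 * (q ^ 4 - 1) ≤ Nat.card (MulAction.orbit (Cfsg.SU 4 F q) x) := horb x hx
  by_cases hcard : q ^ 3 < Nat.card D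
  · obtain ⟨X, hX, hXq⟩ := odd4_relIndex hF h2 D R hDq hD hR hrad hcard x
    have h3 := orb2 x (D : Set (Fin 4 → F)) hxD R X hR hX
    refine odd4_arith hq _ _ _ q hd0 hk (le_trans (Nat.mul_le_mul horb' hXq) h3) ?_
    calc Nat.card D ^ 2 ≤ (q ^ 4) ^ 2 := Nat.pow_le_pow_left hd4 2
      _ = q ^ 7 * q := by ring
  · have h3 := orb2 x (D : Set (Fin 4 → F)) hxD R ⊥ hR (by
      intro g hg
      rw [Subgroup.mem_bot.mp hg]
      exact one_smul _ x)
    rw [Subgroup.relIndex_bot_right] at h3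
    refine odd4_arith hq _ _ _ 1 hd0 hk (le_trans (Nat.mul_le_mul_right 1 horb') h3) ?_
    calc Nat.card D ^ 2 ≤ (q ^ 3) ^ 2 := Nat.pow_le_pow_left (by omega) 2
      _ = q ^ 6 := by ring
      _ ≤ q ^ 7 := Nat.pow_le_pow_right (by omega) (by norm_num)
      _ = q ^ 7 * 1 := by ring

end Cfsg.Agent.Lib.Helper54.MinSU
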