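import Mathlib
import Cfsg.Agent.Lib.Helper83.MinSU.Defs

set_option autoImplicit false

namespace Cfsg.Agent.Lib.Helper54.MinSU

open Matrix Cfsg.Agent.Lib.Helper13 Cfsg.Agent.Lib.Helper5 Cfsg.Agent.Lib.Helper57.RootSU
  Cfsg.Agent.Lib.Helper83.MinSU

variable {F : Type*} [Field F] [Fintype F] {q m n : ℕ}

/-- the `F_q`-span of `D` -/
def spanFq (q : ℕ) (D : AddSubgroup (Fin m → F)) : AddSubgroup (Fin m → F) :=
  AddSubgroup.closure {v | ∃ c : F, c ^ q = c ∧ ∃ w ∈ D, v = c • w}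

theorem spanFq_val_one (hF : Fintype.card F = q ^ 2) (D : AddSubgroup (Fin m → F))
    (hD : ∀ w ∈ D, ∀ w' ∈ D, (Cfsg.hermForm m F q w w') ^ q = Cfsg.hermForm m F q w w')
    (w' : Fin m → F) (hw' : w' ∈ D) (c' : F) (hc' : c' ^ q = c') :
    ∀ w ∈ spanFq q D, (Cfsg.hermForm m F q w (c' • w')) ^ q = Cfsg.hermForm m F q w (c' • w') := by
  intro w hw
  induction hw using AddSubgroup.closure_induction with
  | mem x hx =>
    obtain ⟨c, hc, w0, hw0, rfl⟩ := hx
    rw [hermForm_smul_left, hermForm_smul_right, mul_pow, mul_pow, hD w0 hw0 w' hw', hc, hc', hc']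
  | zero => rw [hermForm_zero_left, zero_pow (by have := two_le_of_card_sq hF; omega)]
  | add x y _ _ hx hy => rw [hermForm_add_left, add_pow_q hF, hx, hy]
  | neg x _ hx => rw [hermForm_neg_left, neg_pow_q hF, hx]

theorem spanFq_val (hF : Fintype.card F = q ^ 2) (D : AddSubgroup (Fin m → F))
    (hD : ∀ w ∈ D, ∀ w' ∈ D, (Cfsg.hermForm m F q w w') ^ q = Cfsg.hermForm m F q w w') :
    ∀ w ∈ spanFq q D, ∀ w' ∈ spanFq q D,
      (Cfsg.hermForm m F q w w') ^ q = Cfsg.hermForm m F q w w' := by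
  intro w hw w' hw'
  induction hw' using AddSubgroup.closure_induction with
  | mem x hx =>
    obtain ⟨c, hc, w0, hw0, rfl⟩ := hx
    exact spanFq_val_one hF D hD w0 hw0 c hc w hw
  | zero => rw [hermForm_zero_right hF, zero_pow (by have := two_le_of_card_sq hF; omega)]
  | add x y _ _ hx hy => rw [hermForm_add_right hF, add_pow_q hF, hx, hy]
  | neg x _ hx => rw [hermForm_neg_right hF, neg_pow_q hF, hx]

/-- [SPAN] -/
theorem exists_Fq_span (hF : Fintype.card F = q ^ 2) (D : AddSubgroup (Fin m → F))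
    (R : Subgroup (Cfsg.SU m F q))
    (hD : ∀ w ∈ D, ∀ w' ∈ D, (Cfsg.hermForm m F q w w') ^ q = Cfsg.hermForm m F q w w')
    (hiso : (2 : F) = 0 → ∀ w ∈ D, Cfsg.hermForm m F q w w = 0)
    (hR : ∀ l ∈ R, ∀ w ∈ D, l.1.1 *ᵥ w ∈ D) :
    ∃ D' : AddSubgroup (Fin m → F), D ≤ D' ∧ (∀ c : F, c ^ q = c → ∀ w ∈ D', c • w ∈ D') ∧
      (∀ w ∈ D', ∀ w' ∈ D', (Cfsg.hermForm m F q w w') ^ q = Cfsg.hermForm m F q w w') ∧
      ((2 : F) = 0 → ∀ w ∈ D', Cfsg.hermForm m F q w w = 0) ∧
      (∀ l ∈ R, ∀ w ∈ D', l.1.1 *ᵥ w ∈ D') := by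
  refine ⟨spanFq q D, ?_, ?_, spanFq_val hF D hD, ?_, ?_⟩
  · intro w hw
    exact AddSubgroup.subset_closure ⟨1, one_pow q, w, hw, (one_smul F w).symm⟩
  · intro c hc w hw
    induction hw using AddSubgroup.closure_induction with
    | mem x hx =>
      obtain ⟨c', hc', w0, hw0, rfl⟩ := hx
      exact AddSubgroup.subset_closure ⟨c * c', by rw [mul_pow, hc, hc'], w0, hw0,
        by rw [smul_smul]⟩
    | zero => rw [smul_zero]; exact (spanFq q D).zero_mem
    | add x y _ _ hx hy => rw [smul_add]; exact (spanFq q D).add_mem hx hy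
    | neg x _ hx => rw [smul_neg]; exact (spanFq q D).neg_mem hx
  · intro h2 w hw
    induction hw using AddSubgroup.closure_induction with
    | mem x hx =>
      obtain ⟨c', hc', w0, hw0, rfl⟩ := hx
      rw [hermForm_smul_left, hermForm_smul_right, hiso h2 w0 hw0, mul_zero, mul_zero]
    | zero => rw [hermForm_zero_left]
    | add x y hxm hym hx hy =>
      have hs : Cfsg.hermForm m F q y x = Cfsg.hermForm m F q x y := by
        rw [← hermForm_swap hF x y]
        exact spanFq_val hF D hD x hxm y hym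
      rw [hermForm_add_left, hermForm_add_right hF, hermForm_add_right hF, hx, hy, hs]
      linear_combination (Cfsg.hermForm m F q x y) * h2
    | neg x _ hx => rw [hermForm_neg_left, hermForm_neg_right hF, hx]; simp
  · intro l hl w hw
    induction hw using AddSubgroup.closure_induction with
    | mem x hx =>
      obtain ⟨c', hc', w0, hw0, rfl⟩ := hx
      exact AddSubgroup.subset_closure ⟨c', hc', _, hR l hl w0 hw0, by rw [Matrix.mulVec_smul]⟩
    | zero => rw [Matrix.mulVec_zero]; exact (spanFq q D).zero_mem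
    | add x y _ _ hx hy => rw [Matrix.mulVec_add]; exact (spanFq q D).add_mem hx hy
    | neg x _ hx => rw [Matrix.mulVec_neg]; exact (spanFq q D).neg_mem hx

end Cfsg.Agent.Lib.Helper54.MinSU
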