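import Mathlib
import Cfsg.Agent.Lib.Helper54.MinSU.ODD4b
import Cfsg.Agent.Lib.Helper75.MinSU.KW
import Cfsg.Agent.S0284

set_option autoImplicit false

namespace Cfsg.Agent.Lib.Helper54.MinSU

open Matrix Module Cfsg.Agent.Lib.Helper13 Cfsg.Agent.Lib.Helper5 Cfsg.Agent.Lib.Helper57.RootSU
  Cfsg.Agent.Lib.Helper83.MinSU Cfsg.Agent.Lib.Helper63.MinSU

variable {F : Type*} [Field F] [Fintype F] {q m n : ℕ}

/-- the orbit of a non-isotropic vector under `SU_4(q)` -/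
theorem odd4_orbit (hF : Fintype.card F = q ^ 2) (hq : 3 ≤ q) (x : Fin 4 → F)
    (hx : Cfsg.hermForm 4 F q x x ≠ 0) : q ^ 3 * (q ^ 4 - 1) ≤ Nat.card (suOrbit q x) := by
  obtain ⟨t, ht⟩ := (Cfsg.Agent.Lib.Helper45.SUGen.hermH hF 0).exists_norm
    (Cfsg.hermForm 4 F q x x) (hermForm_self_pow hF x)
  have ht' : t * t ^ q = Cfsg.hermForm 4 F q x x := ht
  have ht0 : t ≠ 0 := by
    intro h
    rw [h, zero_mul] at ht'
    exact hx ht'.symm
  have h1 := Cfsg.Agent.S0284.result hF 4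
  rw [if_pos (by decide)] at h1
  have h1' : Nat.card {v : Fin 4 → F // Cfsg.hermForm 4 F q v v = 1} = q ^ 3 * (q ^ 4 - 1) := h1
  rw [← h1']
  have hnd : Nondeg q (⊤ : Submodule F (Fin 4 → F)) := by
    intro u _ hu
    by_contra hu0
    obtain ⟨y, hy⟩ := exists_hermForm_ne_zero hF hu0
    exact hy (hermForm_eq_zero_comm hF (hu y trivial))
  have hfin : 3 ≤ Module.finrank F (⊤ : Submodule F (Fin 4 → F)) := by
    rw [finrank_top]
    simp
  have hmem : ∀ v : {v : Fin 4 → F // Cfsg.hermForm 4 F q v v = 1}, t • v.1 ∈ suOrbit q x := by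
    intro v
    obtain ⟨k, -, hk, -⟩ := Cfsg.Agent.Lib.Helper75.MinSU.norm_trans hF hq ⊤ ⊤ hnd hfin
      (fun v _ hv => ⟨hv, fun c _ => Subgroup.mem_top _⟩) x (t • v.1) trivial trivial
      (by rw [hermForm_smul_left, hermForm_smul_right, v.2, ← ht']; ring) hx
    exact ⟨k, hk⟩
  refine Nat.card_le_card_of_injective (fun v => (⟨t • v.1, hmem v⟩ : suOrbit q x)) ?_
  intro v v' h
  have h' : t • v.1 = t • v'.1 := congrArg Subtype.val h
  exact Subtype.ext (smul_right_injective _ ht0 h')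

/-- [ODD4] -/
theorem wb4_odd (hF : Fintype.card F = q ^ 2) (h2 : (2 : F) ≠ 0) (D : AddSubgroup (Fin 4 → F))
    (R : Subgroup (Cfsg.SU 4 F q)) (hD0 : D ≠ ⊥)
    (hDq : ∀ c : F, c ^ q = c → ∀ w ∈ D, c • w ∈ D)
    (hD : ∀ w ∈ D, ∀ w' ∈ D, (Cfsg.hermForm 4 F q w w') ^ q = Cfsg.hermForm 4 F q w w')
    (hR : ∀ l ∈ R, ∀ w ∈ D, l.1.1 *ᵥ w ∈ D)
    (hrad : ∀ x ∈ D, (∀ y ∈ D, Cfsg.hermForm 4 F q x y = 0) → x = 0) :
    Nat.card D * NU q 6 ≤ q ^ 9 * R.index :=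
  wb4_odd_of hF h2 (fun x hx => odd4_orbit hF (three_le_of_two_ne_zero hF h2) x hx)
    D R hD0 hDq hD hR hrad

end Cfsg.Agent.Lib.Helper54.MinSU
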