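import Mathlib
import Cfsg.Agent.Lib.Helper83.MinSU.Defs
import Cfsg.Agent.Lib.Helper54.MinSU.SPAN
import Cfsg.Agent.Lib.Helper54.MinSU.RAD4

set_option autoImplicit false

namespace Cfsg.Agent.Lib.Helper54.MinSU

open Matrix Module Cfsg.Agent.Lib.Helper83.MinSU

variable {F : Type*} [Field F] [Fintype F] {q : ℕ}

/-- [WB4], with the two non-degenerate cases [ODD4], [EVEN4] as hypotheses. -/
theorem wb4_of (hF : Fintype.card F = q ^ 2)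
    (hodd : (2 : F) ≠ 0 → ∀ (D : AddSubgroup (Fin 4 → F)) (R : Subgroup (Cfsg.SU 4 F q)), D ≠ ⊥ →
      (∀ c : F, c ^ q = c → ∀ w ∈ D, c • w ∈ D) →
      (∀ w ∈ D, ∀ w' ∈ D, (Cfsg.hermForm 4 F q w w') ^ q = Cfsg.hermForm 4 F q w w') →
      (∀ l ∈ R, ∀ w ∈ D, l.1.1 *ᵥ w ∈ D) →
      (∀ x ∈ D, (∀ y ∈ D, Cfsg.hermForm 4 F q x y = 0) → x = 0) →
      Nat.card D * NU q 6 ≤ q ^ 9 * R.index)
    (heven : (2 : F) = 0 → ∀ (D : AddSubgroup (Fin 4 → F)) (R : Subgroup (Cfsg.SU 4 F q)), D ≠ ⊥ →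
      (∀ c : F, c ^ q = c → ∀ w ∈ D, c • w ∈ D) →
      (∀ w ∈ D, ∀ w' ∈ D, (Cfsg.hermForm 4 F q w w') ^ q = Cfsg.hermForm 4 F q w w') →
      (∀ w ∈ D, Cfsg.hermForm 4 F q w w = 0) →
      (∀ l ∈ R, ∀ w ∈ D, l.1.1 *ᵥ w ∈ D) →
      (∀ x ∈ D, (∀ y ∈ D, Cfsg.hermForm 4 F q x y = 0) → x = 0) →
      Nat.card D * NU q 6 ≤ q ^ 9 * R.index) : WB F q 4 := by
  intro D R hD0 hD hiso hR
  obtain ⟨D', hle, hDq', hD', hiso', hR'⟩ := exists_Fq_span hF D R hD hiso hR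
  have hD0' : D' ≠ ⊥ := by
    intro h
    apply hD0
    rw [h] at hle
    exact le_bot_iff.mp hle
  have hcard : Nat.card D ≤ Nat.card D' :=
    Nat.card_le_card_of_injective (AddSubgroup.inclusion hle) (AddSubgroup.inclusion_injective hle)
  have key : Nat.card D' * NU q 6 ≤ q ^ 9 * R.index := by
    by_cases hx : ∃ x ∈ D', x ≠ 0 ∧ ∀ y ∈ D', Cfsg.hermForm 4 F q x y = 0
    · obtain ⟨x, hxD, hx0, hxy⟩ := hx
      exact wb4_rad hF D' R hD' hR' x hxD hx0 hxy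
    · have hrad : ∀ x ∈ D', (∀ y ∈ D', Cfsg.hermForm 4 F q x y = 0) → x = 0 := by
        intro x hxD hxy
        by_contra hx0
        exact hx ⟨x, hxD, hx0, hxy⟩
      by_cases h2 : (2 : F) = 0
      · exact heven h2 D' R hD0' hDq' hD' (hiso' h2) hR' hrad
      · exact hodd h2 D' R hD0' hDq' hD' hR' hrad
  show Nat.card D * NU q 6 ≤ q ^ 9 * R.index
  exact le_trans (Nat.mul_le_mul_right _ hcard) key

end Cfsg.Agent.Lib.Helper54.MinSU
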