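import Mathlib
import Cfsg.Agent.Lib.Helper54.MinSU.WB4pre
import Cfsg.Agent.Lib.Helper54.MinSU.ODD4c
import Cfsg.Agent.Lib.Helper63.MinSU.EVEN4

set_option autoImplicit false

namespace Cfsg.Agent.Lib.Helper54.MinSU

open Matrix Module Cfsg.Agent.Lib.Helper83.MinSU

variable {F : Type*} [Field F] [Fintype F] {q : ℕ}

/-- [WB4] -/
theorem wb4 (hF : Fintype.card F = q ^ 2) (hq : 3 ≤ q) : WB F q 4 :=
  wb4_of hF (fun h2 D R hD0 hDq hD hR hrad => wb4_odd hF h2 D R hD0 hDq hD hR hrad)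
    (fun h2 D R hD0 hDq hD hiso hR hrad =>
      Cfsg.Agent.Lib.Helper63.MinSU.wb4_even hF h2 D R hD0 hDq hD hiso hR hrad)

end Cfsg.Agent.Lib.Helper54.MinSU
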